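import Mathlib
import Cfsg.Agent.Classification.BSW.CharTools
import Cfsg.Agent.H656.DihedralP

/-!
# Simple groups with a Sylow normalizer of order `2 p`: one class of involutions

`G` is a nonabelian finite simple group, `P` a Sylow `p`-subgroup of order `p ≥ 5` with `C_G(P) = P` and
`|N_G(P)| = 2 p`. Then all involutions of `G` are conjugate (`isConj_involution`).
-/

set_option autoImplicit false

open scoped ComplexConjugate
open Cfsg Cfsg.Agent.Characters.Core

namespace Cfsg.Agent.H103.ThreeP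

open Cfsg.Agent.H656.DihedralP

universe u

variable {G : Type u} [Group G] [Finite G] {p : ℕ} [Fact p.Prime] {P : Sylow p G}

omit [Finite G] [Fact p.Prime] in
theorem exists_mem_ne_one (h : Hyp P) : ∃ y ∈ (P : Subgroup G), y ≠ 1 := by
  have hp5 := h.five
  by_contra hcon
  push Not at hcon
  have : (P : Subgroup G) = ⊥ := (Subgroup.eq_bot_iff_forall _).mpr hcon
  have h16 : Nat.card (P : Subgroup G) = p := h.card
  rw [this, Subgroup.card_bot] at h16
  omega

/-- The class algebra constant at an element of order `p`. -/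
theorem count_ne_zero [IsSimpleGroup G] (h : Hyp P) {x b : G} (hx1 : x ≠ 1) (hb1 : b ≠ 1)
    (hx : ¬ p ∣ orderOf x) (hb : ¬ p ∣ orderOf b) {y : G} (hy : y ∈ (P : Subgroup G)) (hy1 : y ≠ 1) :
    Nat.card {q : G × G // IsConj x q.1 ∧ IsConj b q.2 ∧ q.1 * q.2 = y} ≠ 0 := by
  classical
  have hfinG : Finite (IrrCharacter G) := finite_irr
  let _ : Fintype (IrrCharacter G) := Fintype.ofFinite _
  have hp5 := h.five
  have hp5' : (5 : ℝ) ≤ p := by exact_mod_cast hp5
  obtain ⟨χ, Y, a, ε, ha, hε, hχ1, hY1, hχP, h0, hreg, hnc⟩ := h.exists_chars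
  let o : IrrCharacter G := ⟨1, isIrr_one⟩
  have hne1 : ∀ ψ : IrrCharacter G, (ψ : G → ℂ) ≠ 1 ↔ ψ ≠ o := by
    intro ψ
    exact ⟨fun hψ h' => hψ (by rw [h']), fun hψ h' => hψ (Subtype.ext h')⟩
  have hχo : χ ≠ o := (hne1 χ).mp hχ1
  have hYfin : Y.Finite := Set.toFinite _
  have hχY : χ ∉ Y := fun hmem => hnc χ hmem a hχP
  have hoY : o ∉ Y := fun hmem => (hY1 o hmem) rfl
  have ha2 : (a : ℂ) * a = 1 := by rcases ha with rfl | rfl <;> norm_num
  have hε2 : (ε : ℂ) * ε = 1 := by rcases hε with rfl | rfl <;> norm_num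
  have hca : conj (a : ℂ) = a := by simp
  -- splitting of sums
  have hsplit : ∀ (W : IrrCharacter G → ℂ) (w : ℂ), (∀ η ∈ Y, W η = w) →
      ∑ ψ : IrrCharacter G, W ψ * conj ((ψ : G → ℂ) y) =
        W o + a * W χ + w * ∑ η ∈ hYfin.toFinset, conj ((η : G → ℂ) y) := by
    intro W w hW
    rw [← Finset.add_sum_erase _ _ (Finset.mem_univ o),
      ← Finset.add_sum_erase _ _ (Finset.mem_erase.mpr ⟨hχo, Finset.mem_univ χ⟩)]
    have h1 : ∑ ψ ∈ (Finset.univ.erase o).erase χ, W ψ * conj ((ψ : G → ℂ) y) =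
        ∑ η ∈ hYfin.toFinset, W η * conj ((η : G → ℂ) y) := by
      symm
      apply Finset.sum_subset
      · intro η hη
        rw [Set.Finite.mem_toFinset] at hη
        rw [Finset.mem_erase, Finset.mem_erase]
        exact ⟨fun h' => hχY (h' ▸ hη), fun h' => hoY (h' ▸ hη), Finset.mem_univ _⟩
      · intro ψ hψ hψY
        rw [Finset.mem_erase, Finset.mem_erase] at hψ
        rw [Set.Finite.mem_toFinset] at hψY
        rw [h0 ψ ((hne1 ψ).mpr hψ.2.1) hψ.1 hψY y hy hy1]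
        simp
    have h2 : ∑ η ∈ hYfin.toFinset, W η * conj ((η : G → ℂ) y) =
        w * ∑ η ∈ hYfin.toFinset, conj ((η : G → ℂ) y) := by
      rw [Finset.mul_sum]
      refine Finset.sum_congr rfl fun η hη => ?_
      rw [hW η (by rwa [Set.Finite.mem_toFinset] at hη)]
    rw [h1, h2, hχP y hy hy1, hca]
    have h3 : (o : G → ℂ) y = 1 := rfl
    rw [h3]
    simp only [map_one]
    ring
  -- `Y` is nonempty
  have hYne : Y.Nonempty := by
    by_contra hcon
    rw [Set.not_nonempty_iff_eq_empty] at hcon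
    have h1 := hsplit (fun ψ => (ψ : G → ℂ) y) 0 (fun η hη => by rw [hcon] at hη; exact absurd hη (by simp))
    have h2 := (Cfsg.Agent.S0145.result (y : G) y).1 (IsConj.refl y)
    rw [finsum_eq_sum_of_fintype] at h2
    rw [h2, hχP y hy hy1, h.centralizer_singleton hy hy1] at h1
    have h3 : Nat.card (P : Subgroup G) = p := h.card
    rw [h3] at h1
    have h4 : (o : G → ℂ) y = 1 := rfl
    rw [h4, ha2, zero_mul] at h1
    have h5 : (p : ℝ) = 2 := by
      have h6 : ((p : ℝ) : ℂ) = ((2 : ℝ) : ℂ) := by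
        push_cast
        linear_combination h1
      exact_mod_cast h6
    linarith
  obtain ⟨η₀, hη₀⟩ := hYne
  set F : ℂ := a * (χ : G → ℂ) 1 with hF
  set s : ℂ := a * (χ : G → ℂ) x with hs
  set t : ℂ := a * (χ : G → ℂ) b with ht
  have hχ10 : (χ : G → ℂ) 1 ≠ 0 := by
    obtain ⟨k, hk, hk1⟩ := isIrr_apply_one χ.2
    rw [hk1]
    exact_mod_cast hk.ne'
  have ha0 : (a : ℂ) ≠ 0 := fun h' => by rw [h', zero_mul] at ha2; exact zero_ne_one ha2
  have hε0 : (ε : ℂ) ≠ 0 := fun h' => by rw [h', zero_mul] at hε2; exact zero_ne_one hε2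
  have hF0 : F ≠ 0 := mul_ne_zero ha0 hχ10
  have hη1 : ∀ η ∈ Y, (η : G → ℂ) 1 = ε * (1 + F) := by
    intro η hη
    have h1 := hreg η hη 1 (by rw [orderOf_one]; exact (Fact.out : p.Prime).not_dvd_one)
    rw [hF, ← h1, ← mul_assoc, hε2, one_mul]
  have hηx : ∀ η ∈ Y, (η : G → ℂ) x = ε * (1 + s) := by
    intro η hη
    rw [hs, ← hreg η hη x hx, ← mul_assoc, hε2, one_mul]
  have hηb : ∀ η ∈ Y, (η : G → ℂ) b = ε * (1 + t) := by
    intro η hη
    rw [ht, ← hreg η hη b hb, ← mul_assoc, hε2, one_mul]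
  have hF1 : 1 + F ≠ 0 := by
    intro h'
    obtain ⟨k, hk, hk1⟩ := isIrr_apply_one η₀.2
    have h1 := hη1 η₀ hη₀
    rw [h', mul_zero, hk1] at h1
    have : k = 0 := by exact_mod_cast h1
    omega
  -- the sum over `Y`
  have hsum : ∑ η ∈ hYfin.toFinset, conj ((η : G → ℂ) y) = -ε := by
    have h1 := hsplit (fun ψ => (ψ : G → ℂ) 1) (ε * (1 + F)) hη1
    have h2 := (Cfsg.Agent.S0145.result (1 : G) y).2 (by
      intro hcon
      rw [isConj_one_right] at hcon
      exact hy1 hcon)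
    rw [finsum_eq_sum_of_fintype] at h2
    rw [h2] at h1
    have h3 : (o : G → ℂ) 1 = 1 := rfl
    rw [h3, ← hF] at h1
    refine mul_left_cancel₀ hF1 (mul_left_cancel₀ hε0 ?_)
    linear_combination -h1 + (1 + F) * hε2
  have h1 := Cfsg.Agent.Characters.ClassMul.card_conj_mul_conj x b y
  rw [Cfsg.Agent.Characters.ClassMul.card_conj_mul_conj_eq] at h1
  push_cast at h1
  have h2 : ∀ ψ : IrrCharacter G, (ψ : G → ℂ) x * (ψ : G → ℂ) b * conj ((ψ : G → ℂ) y) /
      (ψ : G → ℂ) 1 = ((ψ : G → ℂ) x * (ψ : G → ℂ) b / (ψ : G → ℂ) 1) * conj ((ψ : G → ℂ) y) := by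
    intro ψ
    ring
  have h3 : ∀ g, (o : G → ℂ) g = 1 := fun _ => rfl
  have hχx : (χ : G → ℂ) x = a * s := by rw [hs, ← mul_assoc, ha2, one_mul]
  have hχb : (χ : G → ℂ) b = a * t := by rw [ht, ← mul_assoc, ha2, one_mul]
  have hχ1' : (χ : G → ℂ) 1 = a * F := by rw [hF, ← mul_assoc, ha2, one_mul]
  rw [Finset.sum_congr rfl (fun ψ _ => h2 ψ), hsplit _ (ε * (1 + s) * (ε * (1 + t)) / (ε * (1 + F)))
    (fun η hη => by rw [hη1 η hη, hηx η hη, hηb η hη]), hsum, h3, h3, h3, hχx, hχb, hχ1'] at h1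
  have h4 : (1 * 1 / 1 + (a : ℂ) * (a * s * (a * t) / (a * F)) +
      ε * (1 + s) * (ε * (1 + t)) / (ε * (1 + F)) * -ε) = (F - s) * (F - t) / (F * (1 + F)) := by
    have h5 : (a : ℂ) * (a * s * (a * t) / (a * F)) = s * t / F := by
      field_simp
      linear_combination (s * t) * ha2
    have h6 : (ε : ℂ) * (1 + s) * (ε * (1 + t)) / (ε * (1 + F)) * -ε = - ((1 + s) * (1 + t) / (1 + F)) := by
      field_simp
      linear_combination (-(1 + s) * (1 + t)) * hε2
    rw [h5, h6]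
    field_simp
    ring
  rw [h4] at h1
  intro hzero
  rw [hzero] at h1
  have hG : (Nat.card G : ℂ) ≠ 0 := card_ne_zero_complex
  simp only [Nat.cast_zero, mul_zero] at h1
  have h5 := (mul_eq_zero.mp h1.symm).resolve_left hG
  rw [div_eq_zero_iff] at h5
  have h6 := h5.resolve_right (mul_ne_zero hF0 hF1)
  rcases mul_eq_zero.mp h6 with h7 | h7
  · refine hx1 (Cfsg.Agent.Classification.BSW.CharTools.eq_one_of_apply_eq χ.2 hχ1 ?_)
    rw [hχx, hχ1', sub_eq_zero.mp h7]
  · refine hb1 (Cfsg.Agent.Classification.BSW.CharTools.eq_one_of_apply_eq χ.2 hχ1 ?_)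
    rw [hχb, hχ1', sub_eq_zero.mp h7]

/-- All involutions are conjugate. -/
theorem isConj_involution [IsSimpleGroup G] (h : Hyp P) {x : G}
    (hx : x ∈ Subgroup.normalizer ((P : Subgroup G) : Set G)) (hxP : x ∉ (P : Subgroup G)) {b : G}
    (hb : orderOf b = 2) : IsConj x b := by
  have hp5 := h.five
  obtain ⟨y, hy, hy1⟩ := exists_mem_ne_one h
  have hreg : ∀ z : G, orderOf z = 2 → ¬ p ∣ orderOf z := by
    intro z hz hdvd
    rw [hz] at hdvd
    have := Nat.le_of_dvd (by norm_num) hdvd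
    omega
  have hne : ∀ z : G, orderOf z = 2 → z ≠ 1 := by
    rintro z hz rfl
    rw [orderOf_one] at hz
    norm_num at hz
  have hx2 := h.orderOf_eq_two hx hxP
  have h1 := count_ne_zero h (hne x hx2) (hne b hb) (hreg x hx2) (hreg b hb) hy hy1
  have hfin : Finite {q : G × G // IsConj x q.1 ∧ IsConj b q.2 ∧ q.1 * q.2 = y} := inferInstance
  obtain ⟨⟨⟨a, c⟩, ha, hc, hac⟩⟩ : Nonempty {q : G × G // IsConj x q.1 ∧ IsConj b q.2 ∧ q.1 * q.2 = y} := by
    rw [← Finite.card_pos_iff]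
    exact Nat.pos_of_ne_zero h1
  have hsq : ∀ {z a : G}, z * z = 1 → IsConj z a → a * a = 1 := by
    intro z a hz ha
    obtain ⟨c, rfl⟩ := isConj_iff.mp ha
    calc c * z * c⁻¹ * (c * z * c⁻¹) = c * (z * z) * c⁻¹ := by group
      _ = 1 := by rw [hz]; group
  have hbb : b * b = 1 := by
    have := pow_orderOf_eq_one b
    rw [hb, sq] at this
    exact this
  simp only at ha hc hac
  have h3 := (h.mem_of_mul_mem (hsq (h.mul_self_eq_one hx hxP) ha) (hsq hbb hc)
    (by rw [hac]; exact hy) (by rw [hac]; exact hy1)).2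
  exact (h.isConj hx hxP h3.1 h3.2).trans hc.symm

end Cfsg.Agent.H103.ThreeP
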