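import Mathlib
import Cfsg.Agent.H103.ThreeP.Conj
import Cfsg.Agent.H103.ThreeP.Block

/-!
# Counting involutions and Sylow subgroups
-/

set_option autoImplicit false

open Cfsg

namespace Cfsg.Agent.H103.ThreeP

open MulAction Pointwise Cfsg.Agent.H656.DihedralP

universe u v

section Inv

variable {G : Type u} [Group G] [Finite G] {Ω : Type v} [Finite Ω] [MulAction G Ω]

/-- Double counting of the pairs (involution, fixed point). -/
theorem card_involutions_fix [IsPretransitive G Ω] {f : ℕ}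
    (hfix : ∀ b : G, orderOf b = 2 → (fixedBy Ω b).ncard = f) (α : Ω) :
    Nat.card Ω * Nat.card {b : G // orderOf b = 2 ∧ b • α = α} = f * Nat.card {b : G // orderOf b = 2} := by
  classical
  let _ := Fintype.ofFinite G
  let _ := Fintype.ofFinite Ω
  let A := {w : G × Ω // orderOf w.1 = 2 ∧ w.1 • w.2 = w.2}
  have h1 : Nat.card A = f * Nat.card {b : G // orderOf b = 2} := by
    let e : A ≃ Σ b : {b : G // orderOf b = 2}, fixedBy Ω (b : G) :=
      { toFun := fun w => ⟨⟨w.1.1, w.2.1⟩, ⟨w.1.2, w.2.2⟩⟩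
        invFun := fun w => ⟨(w.1.1, w.2.1), w.1.2, w.2.2⟩
        left_inv := fun _ => rfl
        right_inv := fun _ => rfl }
    have h2 : ∀ b : {b : G // orderOf b = 2}, Nat.card (fixedBy Ω (b : G)) = f := fun b => hfix b b.2
    rw [Nat.card_congr e, Nat.card_sigma, Finset.sum_congr rfl (fun b _ => h2 b), Finset.sum_const,
      Finset.card_univ, smul_eq_mul, Nat.card_eq_fintype_card, mul_comm]
  have h2 : Nat.card A = Nat.card Ω * Nat.card {b : G // orderOf b = 2 ∧ b • α = α} := by
    let e : A ≃ Σ β : Ω, {b : G // orderOf b = 2 ∧ b • β = β} :=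
      { toFun := fun w => ⟨w.1.2, ⟨w.1.1, w.2⟩⟩
        invFun := fun w => ⟨(w.2.1, w.1), w.2.2⟩
        left_inv := fun _ => rfl
        right_inv := fun _ => rfl }
    have h3 : ∀ β : Ω, Nat.card {b : G // orderOf b = 2 ∧ b • β = β} =
        Nat.card {b : G // orderOf b = 2 ∧ b • α = α} := by
      intro β
      obtain ⟨g, hg⟩ := exists_smul_eq G α β
      refine (Nat.card_congr ((MulAut.conj g).toEquiv.subtypeEquiv fun b => ?_)).symm
      have h4 : (MulAut.conj g).toEquiv b = g * b * g⁻¹ := rfl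
      have h5 : orderOf (g * b * g⁻¹) = orderOf b := (MulAut.conj g).orderOf_eq b
      rw [h4, h5, ← hg, mul_smul, mul_smul, inv_smul_smul, smul_left_cancel_iff]
    rw [Nat.card_congr e, Nat.card_sigma, Finset.sum_congr rfl (fun b _ => h3 b), Finset.sum_const,
      Finset.card_univ, smul_eq_mul, Nat.card_eq_fintype_card (α := Ω)]
  rw [← h1, h2]

/-- The involutions form one class. -/
theorem card_involutions [IsSimpleGroup G] {p : ℕ} [Fact p.Prime] {P : Sylow p G} (h : Hyp P) {x : G}
    (hx : x ∈ Subgroup.normalizer ((P : Subgroup G) : Set G)) (hxP : x ∉ (P : Subgroup G)) :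
    Nat.card {b : G // orderOf b = 2} * Nat.card (Subgroup.centralizer ({x} : Set G)) = Nat.card G := by
  have h1 : (orbit (ConjAct G) x) = {b : G | orderOf b = 2} := by
    ext b
    rw [mem_orbit_iff]
    constructor
    · rintro ⟨g, rfl⟩
      change orderOf (ConjAct.ofConjAct g * x * (ConjAct.ofConjAct g)⁻¹) = 2
      rw [← h.orderOf_eq_two hx hxP]
      exact (MulAut.conj (ConjAct.ofConjAct g)).orderOf_eq x
    · intro hb
      obtain ⟨g, rfl⟩ := isConj_iff.mp (isConj_involution h hx hxP hb)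
      exact ⟨ConjAct.toConjAct g, rfl⟩
  have h2 : Nat.card {b : G // orderOf b = 2} = (orbit (ConjAct G) x).ncard := by
    rw [h1]
    rfl
  rw [h2, Subgroup.nat_card_centralizer_nat_card_stabilizer, ← index_stabilizer, mul_comm]
  exact Subgroup.card_mul_index _

end Inv

section Syl

variable {G : Type u} [Group G] [Finite G] {r : ℕ} [Fact r.Prime]

omit [Fact r.Prime] in
/-- Trivial intersection of Sylow subgroups: the orbit of a Sylow subgroup under a subgroup `H`. -/
theorem dvd_orbit_sub_one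
    (ti : ∀ (P Q : Sylow r G) (x : G), x ≠ 1 → x ∈ (P : Subgroup G) → x ∈ (Q : Subgroup G) → P = Q)
    (H U : Subgroup G) (hUH : U ≤ H) (Q : Sylow r G) (hUQ : U ≤ Q) :
    Nat.card U ∣ (orbit H Q).ncard - 1 := by
  have hU : IsPGroup r U := Q.isPGroup'.to_le hUQ
  have key : ∀ (s : U) (y : Sylow r G), s • y = y → (s : G) ∈ (y : Subgroup G) := by
    intro s y hs
    have h1 : (s : G) ∈ Subgroup.normalizer ((y : Subgroup G) : Set G) :=
      Sylow.smul_eq_iff_mem_normalizer.mp hs
    have h2 : (s : G) ∈ U ⊓ Subgroup.normalizer ((y : Subgroup G) : Set G) := ⟨s.2, h1⟩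
    have h3 : U ⊓ Subgroup.normalizer ((y : Subgroup G) : Set G) = U ⊓ (y : Subgroup G) :=
      hU.inf_normalizer_sylow y
    rw [h3] at h2
    exact h2.2
  refine dvd_ncard_sub_one (S := U) (Y := Sylow r G) Q (orbit H Q) (mem_orbit_self Q) ?_ ?_ ?_
  · rintro s _ ⟨h, rfl⟩
    exact ⟨⟨s, hUH s.2⟩ * h, mul_smul _ _ _⟩
  · intro s
    exact Sylow.smul_eq_iff_mem_normalizer.mpr (Subgroup.le_normalizer (hUQ s.2))
  · intro s y hy hs
    by_contra hs1
    exact hy (ti y Q s (fun h => hs1 (Subtype.ext h)) (key s y hs) (hUQ s.2))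

omit [Finite G] [Fact r.Prime] in
theorem orbit_mul (H : Subgroup G) (Q : Sylow r G) :
    (orbit H Q).ncard * Nat.card ↥(H ⊓ Subgroup.normalizer ((Q : Subgroup G) : Set G)) = Nat.card H := by
  have h1 : stabilizer H Q = (Subgroup.normalizer ((Q : Subgroup G) : Set G)).subgroupOf H := by
    ext s
    rw [mem_stabilizer_iff, Subgroup.mem_subgroupOf]
    exact Sylow.smul_eq_iff_mem_normalizer
  rw [← index_stabilizer, h1, ← Subgroup.inf_subgroupOf_left,
    ← Nat.card_congr (Subgroup.subgroupOfEquivOfLe (inf_le_left :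
      H ⊓ Subgroup.normalizer ((Q : Subgroup G) : Set G) ≤ H)).toEquiv, mul_comm]
  exact Subgroup.card_mul_index _

end Syl

end Cfsg.Agent.H103.ThreeP
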