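import Mathlib
import Cfsg.Agent.H656.PermSetup
import Cfsg.Agent.H103.ThreeP.Conj

/-!
# Degree `3 p`: every involution fixes one or three points
-/

set_option autoImplicit false
set_option linter.unusedSectionVars false

open Cfsg

namespace Cfsg.Agent.H103.ThreeP

open Cfsg.Agent.H656 Cfsg.Agent.H656.DihedralP MulAction

universe u v

variable {G : Type u} [Group G] [Finite G] {Ω : Type v} [Fintype Ω] [MulAction G Ω]
  {p : ℕ} [Fact p.Prime] {P : Sylow p G}

/-- `P` is semiregular. -/
theorem free [IsPretransitive G Ω] (h : Hyp P) (hΩ : Fintype.card Ω = 3 * p) :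
    ∀ y ∈ (P : Subgroup G), y ≠ 1 → ∀ a : Ω, y • a ≠ a := by
  have hpp : p.Prime := Fact.out
  have hP' : Nat.card (P : Subgroup G) = p := h.card
  have hΩ' : Nat.card Ω = 3 * p := by rw [Nat.card_eq_fintype_card, hΩ]
  intro y hy hy1 a hya
  apply P.not_dvd_index
  have h1 : p ∣ Nat.card (stabilizer G a) := by
    have h2 : y ∈ stabilizer G a := hya
    have h3 : orderOf (⟨y, h2⟩ : stabilizer G a) ∣ Nat.card (stabilizer G a) := orderOf_dvd_natCard _
    rw [Subgroup.orderOf_mk, PermSetup.orderOf_eq hP' hy hy1] at h3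
    exact h3
  have h2 : Nat.card (stabilizer G a) * (3 * p) = Nat.card G := by
    rw [← hΩ', ← index_stabilizer_of_transitive G a]
    exact Subgroup.card_mul_index _
  have h3 : p * (P : Subgroup G).index = Nat.card G := by
    have h4 := Subgroup.card_mul_index (P : Subgroup G)
    rw [hP'] at h4
    exact h4
  have h4 : (P : Subgroup G).index = 3 * Nat.card (stabilizer G a) := by
    apply Nat.eq_of_mul_eq_mul_left hpp.pos
    rw [h3, ← h2]
    ring
  rw [h4]
  exact h1.mul_left 3

/-- The involutions of `N_G(P)` have at most three fixed points. -/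
theorem card_le_three (h : Hyp P) (hΩ : Fintype.card Ω = 3 * p)
    (hfree : ∀ y ∈ (P : Subgroup G), y ≠ 1 → ∀ a : Ω, y • a ≠ a) {x : G}
    (hx : x ∈ Subgroup.normalizer ((P : Subgroup G) : Set G)) (hxP : x ∉ (P : Subgroup G)) :
    Nat.card (fixedBy Ω x) ≤ 3 := by
  have hpp : p.Prime := Fact.out
  have hP' : Nat.card (P : Subgroup G) = p := h.card
  have hinj : Function.Injective
      (fun q : ↥(P : Subgroup G) × ↥(fixedBy Ω x) => (q.1 : G) • (q.2 : Ω)) := by
    rintro ⟨⟨y, hy⟩, ⟨a, ha⟩⟩ ⟨⟨y', hy'⟩, ⟨a', ha'⟩⟩ heq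
    have ha1 : x • a = a := ha
    have ha2 : x • a' = a' := ha'
    have heq' : y • a = y' • a' := heq
    set z : G := y'⁻¹ * y with hz
    have hzP : z ∈ (P : Subgroup G) := Subgroup.mul_mem _ (Subgroup.inv_mem _ hy') hy
    have h1 : z • a = a' := by
      rw [hz, mul_smul, heq', inv_smul_smul]
    have h2 : z⁻¹ • a = z • a := by
      calc z⁻¹ • a = (x * z * x⁻¹) • a := by rw [h.conj_eq_inv hx hxP hzP]
        _ = x • z • x⁻¹ • a := by rw [mul_smul, mul_smul]
        _ = x • z • a := by
          congr 2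
          rw [inv_smul_eq_iff]
          exact ha1.symm
        _ = z • a := by rw [h1, ha2]
    have h3 : (z * z) • a = a := by
      rw [mul_smul, ← h2, smul_inv_smul]
    have h4 : z = 1 := by
      by_contra hz1
      have h5 : z * z ≠ 1 := by
        intro h5
        have h6 := PermSetup.orderOf_eq hP' hzP hz1
        have h7 : orderOf z ∣ 2 := orderOf_dvd_of_pow_eq_one (by rw [sq, h5])
        rw [h6] at h7
        have h8 := Nat.le_of_dvd two_pos h7
        have h9 := h.five
        omega
      exact hfree _ (Subgroup.mul_mem _ hzP hzP) h5 a h3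
    have h5 : y = y' := by
      rw [hz, inv_mul_eq_one] at h4
      exact h4.symm
    have h6 : a = a' := by
      rw [h4, one_smul] at h1
      exact h1
    subst h5 h6
    rfl
  have h1 := Nat.card_le_card_of_injective _ hinj
  rw [Nat.card_prod, hP', Nat.card_eq_fintype_card (α := Ω), hΩ, mul_comm 3 p] at h1
  exact Nat.le_of_mul_le_mul_left h1 hpp.pos

/-- The involutions of `N_G(P)` have one or three fixed points. -/
theorem card_one_or_three (h : Hyp P) (hΩ : Fintype.card Ω = 3 * p)
    (hfree : ∀ y ∈ (P : Subgroup G), y ≠ 1 → ∀ a : Ω, y • a ≠ a) {x : G}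
    (hx : x ∈ Subgroup.normalizer ((P : Subgroup G) : Set G)) (hxP : x ∉ (P : Subgroup G)) :
    Nat.card (fixedBy Ω x) = 1 ∨ Nat.card (fixedBy Ω x) = 3 := by
  classical
  have h1 := card_le_three h hΩ hfree hx hxP
  have h2 : (toPerm x : Equiv.Perm Ω) ^ 2 = 1 := by
    ext a
    rw [sq]
    change x • x • a = a
    rw [smul_smul, h.mul_self_eq_one hx hxP, one_smul]
  have h3 : Fintype.card (Function.fixedPoints (toPerm x : Equiv.Perm Ω)) =
      Nat.card (fixedBy Ω x) := by
    rw [← Nat.card_eq_fintype_card]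
    rfl
  have h4 := Equiv.Perm.two_dvd_card_support h2
  have h5 := Equiv.Perm.card_fixedPoints (toPerm x : Equiv.Perm Ω)
  rw [Equiv.Perm.sum_cycleType] at h5
  rw [h3, hΩ] at h5
  have h6 : (toPerm x : Equiv.Perm Ω).support.card ≤ 3 * p := by
    rw [← hΩ]
    exact Finset.card_le_univ _
  have hp5 := h.five
  have hodd : p % 2 = 1 := by
    rcases (Fact.out : p.Prime).eq_two_or_odd with h' | h' <;> omega
  obtain ⟨k, hk⟩ := h4
  omega

/-- All involutions have the same number of fixed points, one or three. -/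
theorem exists_fix [IsPretransitive G Ω] [IsSimpleGroup G] (h : Hyp P) (hΩ : Fintype.card Ω = 3 * p) :
    ∃ f : ℕ, (f = 1 ∨ f = 3) ∧ ∀ b : G, orderOf b = 2 → (fixedBy Ω b).ncard = f := by
  obtain ⟨x, hx, hxP⟩ := h.exists_not_mem
  refine ⟨Nat.card (fixedBy Ω x), card_one_or_three h hΩ (free h hΩ) hx hxP, fun b hb => ?_⟩
  obtain ⟨g, rfl⟩ := isConj_iff.mp (isConj_involution h hx hxP hb)
  rw [← smul_fixedBy]
  exact Set.ncard_smul_set g _

end Cfsg.Agent.H103.ThreeP
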