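import Mathlib
import Cfsg.Agent.H656.PermSetup
import Cfsg.Agent.H103.ThreeP.Conj

/-!
# Consequences of `C_G(P) = P`, `|P| = p`
-/

set_option autoImplicit false

open Cfsg

namespace Cfsg.Agent.H103.ThreeP

open Cfsg.Agent.H656 Cfsg.Agent.H656.DihedralP

universe u

variable {G : Type u} [Group G] [Finite G] {p : ℕ} [Fact p.Prime] {P : Sylow p G}

theorem exists_conj_mem_P {y : G} (hy : orderOf y = p) (P : Sylow p G) :
    ∃ g : G, g * y * g⁻¹ ∈ (P : Subgroup G) := by
  have h1 : IsPGroup p (Subgroup.zpowers y) := by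
    apply IsPGroup.of_card (n := 1)
    rw [Nat.card_zpowers, hy, pow_one]
  obtain ⟨Q, hQ⟩ := h1.exists_le_sylow
  obtain ⟨m, hm⟩ := MulAction.exists_smul_eq G Q P
  refine ⟨m, ?_⟩
  have h2 : y ∈ (Q : Subgroup G) := hQ (Subgroup.mem_zpowers _)
  rw [← hm, Sylow.coe_subgroup_smul]
  exact Subgroup.mem_pointwise_smul_iff_inv_smul_mem.mpr (by
    simpa [MulAut.smul_def, mul_assoc] using h2)

/-- An abelian subgroup of order divisible by `p` has order `p`. -/
theorem card_eq_of_comm (h : Hyp P) (T : Subgroup G) (hT : ∀ a ∈ T, ∀ b ∈ T, a * b = b * a)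
    (hp : p ∣ Nat.card T) : Nat.card T = p := by
  have hpp : p.Prime := Fact.out
  obtain ⟨y, hy⟩ := exists_prime_orderOf_dvd_card' p hp
  have hy' : orderOf (y : G) = p := by rw [Subgroup.orderOf_coe, hy]
  obtain ⟨g, hg⟩ := exists_conj_mem_P hy' P
  have hg1 : g * y * g⁻¹ ≠ 1 := by
    intro h1
    rw [conj_eq_one_iff] at h1
    rw [h1, orderOf_one] at hy'
    exact hpp.one_lt.ne hy'
  have h1 : T.map (MulAut.conj g).toMonoidHom ≤ (P : Subgroup G) := by
    rw [← h.centralizer_singleton hg hg1]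
    rintro _ ⟨a, ha, rfl⟩
    rw [Subgroup.mem_centralizer_singleton_iff]
    change g * a * g⁻¹ * (g * y * g⁻¹) = g * y * g⁻¹ * (g * a * g⁻¹)
    have h2 := hT a ha y y.2
    calc g * a * g⁻¹ * (g * y * g⁻¹) = g * (a * y) * g⁻¹ := by group
      _ = g * (y * a) * g⁻¹ := by rw [h2]
      _ = _ := by group
  have h2 : Nat.card (T.map (MulAut.conj g).toMonoidHom) = Nat.card T :=
    Nat.card_congr (T.equivMapOfInjective _ (MulAut.conj g).injective).toEquiv.symm
  have h3 := Subgroup.card_dvd_of_le h1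
  have h4 : Nat.card (P : Subgroup G) = p := h.card
  rw [h2, h4] at h3
  exact Nat.dvd_antisymm h3 hp

/-- No element of order `p` commutes with a nontrivial `p'`-element. -/
theorem not_dvd_centralizer (h : Hyp P) {t : G} (ht : t ≠ 1) (hpt : ¬ p ∣ orderOf t) :
    ¬ p ∣ Nat.card (Subgroup.centralizer ({t} : Set G)) := by
  have hpp : p.Prime := Fact.out
  intro hp
  obtain ⟨y, hy⟩ := exists_prime_orderOf_dvd_card' p hp
  have hy' : orderOf (y : G) = p := by rw [Subgroup.orderOf_coe, hy]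
  obtain ⟨g, hg⟩ := exists_conj_mem_P hy' P
  have hg1 : g * y * g⁻¹ ≠ 1 := by
    intro h1
    rw [conj_eq_one_iff] at h1
    rw [h1, orderOf_one] at hy'
    exact hpp.one_lt.ne hy'
  have h1 : g * t * g⁻¹ ∈ (P : Subgroup G) := by
    rw [← h.centralizer_singleton hg hg1, Subgroup.mem_centralizer_singleton_iff]
    have h2 := Subgroup.mem_centralizer_singleton_iff.mp y.2
    calc g * t * g⁻¹ * (g * y * g⁻¹) = g * (t * y) * g⁻¹ := by group
      _ = g * (y * t) * g⁻¹ := by rw [h2]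
      _ = _ := by group
  have h2 : g * t * g⁻¹ ≠ 1 := by
    intro h1
    rw [conj_eq_one_iff] at h1
    exact ht h1
  have h3 : Nat.card (P : Subgroup G) = p := h.card
  have h4 := PermSetup.orderOf_eq h3 h1 h2
  apply hpt
  rw [← h4]
  have h5 := (MulAut.conj g).orderOf_eq t
  rw [MulAut.conj_apply] at h5
  rw [h5]

theorem exists_sylow_card (h : Hyp P) : ∃ j, (1 + p * j) * (2 * p) = Nat.card G := by
  have h1 := card_sylow_modEq_one p G
  have h2 : Nat.card (Sylow p G) = (Subgroup.normalizer ((P : Subgroup G) : Set G)).index :=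
    P.card_eq_index_normalizer
  have h3 := Subgroup.card_mul_index (Subgroup.normalizer ((P : Subgroup G) : Set G))
  rw [h.norm, ← h2] at h3
  have h4 : 0 < Nat.card (Sylow p G) := Nat.card_pos
  obtain ⟨j, hj⟩ := (Nat.modEq_iff_dvd' h4).mp h1.symm
  refine ⟨j, ?_⟩
  rw [← h3, ← hj, mul_comm]
  congr 1
  omega

theorem dvd_card (h : Hyp P) : p ∣ Nat.card G := by
  obtain ⟨j, hj⟩ := exists_sylow_card h
  rw [← hj]
  exact ⟨(1 + p * j) * 2, by ring⟩

theorem sq_not_dvd (h : Hyp P) : ¬ p ^ 2 ∣ Nat.card G := by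
  have hpp : p.Prime := Fact.out
  have hp5 := h.five
  obtain ⟨j, hj⟩ := exists_sylow_card h
  rw [← hj]
  rintro ⟨k, hk⟩
  have h1 : (1 + p * j) * 2 = p * k := by
    apply Nat.eq_of_mul_eq_mul_right hpp.pos
    rw [show p * k * p = p ^ 2 * k by ring, ← hk]
    ring
  have h2 : p ∣ 2 := by
    have h3 : p ∣ 2 + p * (2 * j) := ⟨k, by rw [← h1]; ring⟩
    exact (Nat.dvd_add_left (Dvd.intro _ rfl)).mp h3
  have := Nat.le_of_dvd (by norm_num) h2
  omega

/-- The final arithmetic for `L₃(q)`, `U₃(q)`. -/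
theorem arith_end {p d m X j : ℕ} (hp5 : 5 ≤ p) (hd : d = 1 ∨ d = 3) (hm : m = p ∨ m = 3 * p)
    (h3 : m = 3 * p → d = 3) (hcard : d * ((1 + p * j) * (2 * p)) = X * m) (hX : (p : ℤ) ∣ X - 3) : False := by
  have hp0 : 0 < p := by omega
  obtain ⟨c, hc⟩ := hX
  have hX' : (X : ℤ) = 3 + p * c := by linarith
  rcases hm with rfl | rfl
  · have h1 : d * ((1 + m * j) * 2) = X := by
      apply Nat.eq_of_mul_eq_mul_right hp0
      rw [← hcard]
      ring
    have h2 : (d : ℤ) * ((1 + m * j) * 2) = 3 + m * c := by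
      rw [← hX']
      exact_mod_cast h1
    rcases hd with rfl | rfl
    · have h4 : (m : ℤ) ∣ 1 := ⟨2 * j - c, by push_cast at h2; linear_combination -h2⟩
      have h5 : m ∣ 1 := by exact_mod_cast h4
      have := Nat.le_of_dvd one_pos h5
      omega
    · have h4 : (m : ℤ) ∣ 3 := ⟨c - 6 * j, by push_cast at h2; linear_combination h2⟩
      have h5 : m ∣ 3 := by exact_mod_cast h4
      have := Nat.le_of_dvd (by norm_num) h5
      omega
  · have hd3 := h3 rfl
    subst hd3
    have h1 : (1 + p * j) * 2 = X := by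
      apply Nat.eq_of_mul_eq_mul_right (show 0 < 3 * p by omega)
      rw [← hcard]
      ring
    have h2 : ((1 : ℤ) + p * j) * 2 = 3 + p * c := by
      rw [← hX']
      exact_mod_cast h1
    have h4 : (p : ℤ) ∣ 1 := ⟨2 * j - c, by linear_combination -h2⟩
    have h5 : p ∣ 1 := by exact_mod_cast h4
    have := Nat.le_of_dvd one_pos h5
    omega

/-- A cyclic subgroup whose order is a multiple of `m / 3`, `p ∣ m`. -/
theorem eq_or_eq (h : Hyp P) {b : G} {m : ℕ} (hm : m ∣ 3 * orderOf b) (hpm : p ∣ m) : m = p ∨ m = 3 * p := by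
  have hpp : p.Prime := Fact.out
  have hp5 := h.five
  have h1 : p ∣ orderOf b := by
    rcases (Nat.Prime.dvd_mul hpp).mp (hpm.trans hm) with h1 | h1
    · have := Nat.le_of_dvd (by norm_num) h1
      omega
    · exact h1
  have h2 : Nat.card (Subgroup.zpowers b) = p := by
    apply card_eq_of_comm h
    · intro x hx y hy
      obtain ⟨i, rfl⟩ := Subgroup.mem_zpowers_iff.mp hx
      obtain ⟨k, rfl⟩ := Subgroup.mem_zpowers_iff.mp hy
      rw [← zpow_add, ← zpow_add, add_comm]
    · rwa [Nat.card_zpowers]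
  rw [Nat.card_zpowers] at h2
  rw [h2] at hm
  obtain ⟨k, rfl⟩ := hpm
  have h3 : k ∣ 3 := by
    rw [mul_comm 3 p] at hm
    exact Nat.dvd_of_mul_dvd_mul_left hpp.pos hm
  rcases (Nat.dvd_prime Nat.prime_three).mp h3 with rfl | rfl
  · left; ring
  · right; ring

end Cfsg.Agent.H103.ThreeP
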