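import Mathlib
import Cfsg.Agent.S0243
import Cfsg.Agent.S0277
import Cfsg.Agent.S0280
import Cfsg.Agent.GTwoOdd.CentPSL
import Cfsg.Agent.GTwoOdd.CentPSU
import Cfsg.Agent.LieExceptional.CyclicSylow
import Cfsg.Agent.H103.UniBlock
import Cfsg.Agent.H103.ThreeP.Torus

/-!
# `L₃(q)` and `U₃(q)`, `q` odd, have no Sylow normalizer of order `2 p`
-/

set_option autoImplicit false

open Cfsg

namespace Cfsg.Agent.H103.ThreeP

open Matrix Cfsg.Agent.H656.DihedralP

universe u

section PSL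

variable {F : Type} [Field F] [Fintype F]

omit [Fintype F] in
theorem pow_three_of_mem_center {A : SpecialLinearGroup (Fin 3) F}
    (hA : A ∈ Subgroup.center (SpecialLinearGroup (Fin 3) F)) : A ^ 3 = 1 := by
  obtain ⟨c, hc, hc'⟩ := Matrix.SpecialLinearGroup.mem_center_iff.mp hA
  apply Subtype.ext
  change A.1 ^ 3 = 1
  rw [show A.1 = scalar (Fin 3) c from hc'.symm, ← map_pow, show c ^ 3 = 1 from by simpa using hc, map_one]

/-- An element of `PSL₃(q)` whose order is at least a third of `q² + q + 1`. -/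
theorem exists_psl_three : ∃ b : ProjectiveSpecialLinearGroup (Fin 3) F,
    Fintype.card F ^ 2 + Fintype.card F + 1 ∣ 3 * orderOf b := by
  classical
  set q := Fintype.card F with hq
  have hq2 : 2 ≤ q := Fintype.one_lt_card
  obtain ⟨K, _, _, hK, ψ, hψ⟩ := Cfsg.Agent.LieExceptional.CyclicSylow.exists_singer F 3
  obtain ⟨y, hy⟩ := IsCyclic.exists_generator (α := Kˣ)
  have hord : orderOf (ψ y) = q ^ 3 - 1 := by
    rw [orderOf_injective _ hψ, orderOf_eq_card_of_forall_mem_zpowers hy, Nat.card_units, hK,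
      Nat.card_eq_fintype_card]
  obtain ⟨r, hr⟩ : ∃ r, q = r + 1 := ⟨q - 1, by omega⟩
  have e1 : q ^ 3 - 1 = (q ^ 2 + q + 1) * r := by
    have : q ^ 3 = (q ^ 2 + q + 1) * r + 1 := by rw [hr]; ring
    omega
  have hr0 : r ≠ 0 := by omega
  have hordr : orderOf ((ψ y) ^ r) = q ^ 2 + q + 1 := by
    rw [orderOf_pow_of_dvd hr0 (by rw [hord, e1]; exact Dvd.intro_left _ rfl), hord, e1,
      Nat.mul_div_cancel _ (Nat.pos_of_ne_zero hr0)]
  have hdet : (((ψ y) ^ r : GL (Fin 3) F) : Matrix (Fin 3) (Fin 3) F).det = 1 := by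
    have h1 : (GeneralLinearGroup.det (ψ y)) ^ r = 1 := by
      have h2 := pow_card_eq_one' (x := GeneralLinearGroup.det (ψ y))
      rw [Nat.card_units, Nat.card_eq_fintype_card, ← hq, hr, Nat.add_sub_cancel] at h2
      exact h2
    have h2 := congrArg Units.val h1
    rw [← map_pow] at h2
    exact h2
  let B : SpecialLinearGroup (Fin 3) F := ⟨_, hdet⟩
  have hB : SpecialLinearGroup.toGL B = (ψ y) ^ r := Units.ext rfl
  have hinj : Function.Injective (SpecialLinearGroup.toGL : SpecialLinearGroup (Fin 3) F →* GL (Fin 3) F) := by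
    intro x z hxz
    apply Subtype.ext
    exact congrArg Units.val hxz
  have hordB : orderOf B = q ^ 2 + q + 1 := by
    rw [← hordr, ← hB]
    exact (orderOf_injective (SpecialLinearGroup.toGL (n := Fin 3) (R := F)) hinj B).symm
  refine ⟨QuotientGroup.mk B, ?_⟩
  rw [← hordB, orderOf_dvd_iff_pow_eq_one]
  have h1 : B ^ orderOf (QuotientGroup.mk B : ProjectiveSpecialLinearGroup (Fin 3) F) ∈
      Subgroup.center (SpecialLinearGroup (Fin 3) F) := by
    rw [← QuotientGroup.eq_one_iff]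
    have := pow_orderOf_eq_one (QuotientGroup.mk B : ProjectiveSpecialLinearGroup (Fin 3) F)
    exact this
  rw [mul_comm, pow_mul]
  exact pow_three_of_mem_center h1

theorem no_psl_three (hF : Fintype.card F % 4 = 3) {G : Type u} [Group G] [Finite G]
    (e : G ≃* ProjectiveSpecialLinearGroup (Fin 3) F) {p : ℕ} [Fact p.Prime] {P : Sylow p G} (h : Hyp P) :
    False := by
  classical
  have hpp : p.Prime := Fact.out
  have hp5 := h.five
  set q := Fintype.card F with hq
  have h2 : (2 : F) ≠ 0 := by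
    apply Ring.two_ne_zero
    intro h
    have h1 := FiniteField.even_card_iff_char_two.mp h
    omega
  obtain ⟨r, hr⟩ : ∃ r, q = r + 1 := ⟨q - 1, by omega⟩
  have hr0 : 0 < r := by omega
  -- order
  have hcard : Nat.gcd 3 r * Nat.card G = (q ^ 3 * (q ^ 2 - 1) * r) * (q ^ 2 + q + 1) := by
    have h1 := Cfsg.Agent.S0243.result (F := F) (q := q) rfl 3 (by norm_num)
    rw [← Nat.card_congr e.toEquiv, Fin.prod_univ_three] at h1
    simp only [Fin.val_zero, Fin.val_one, Fin.val_two, pow_zero, pow_one] at h1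
    have e1 : q ^ 3 - 1 = (q ^ 2 + q + 1) * r := by
      have : q ^ 3 = (q ^ 2 + q + 1) * r + 1 := by rw [hr]; ring
      omega
    have e2 : q ^ 3 - q = q * (q ^ 2 - 1) := by
      rw [Nat.mul_sub, mul_one]
      congr 1
      ring
    have e3 : q ^ 3 - q ^ 2 = q ^ 2 * r := by
      have : q ^ 3 = q ^ 2 * r + q ^ 2 := by rw [hr]; ring
      omega
    have e4 : q - 1 = r := by omega
    rw [e1, e2, e3, e4] at h1
    apply Nat.eq_of_mul_eq_mul_right hr0
    calc Nat.gcd 3 r * Nat.card G * r = Nat.gcd 3 r * (r * Nat.card G) := by ring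
      _ = _ := by rw [h1]; ring
  have hd : Nat.gcd 3 r = 1 ∨ Nat.gcd 3 r = 3 := (Nat.dvd_prime Nat.prime_three).mp (Nat.gcd_dvd_left 3 r)
  -- `p` does not divide `q`
  have hpq : ¬ p ∣ q := by
    intro hd'
    apply sq_not_dvd h
    have h1 : p ^ 2 ∣ Nat.gcd 3 r * Nat.card G := by
      rw [hcard]
      have h3 : p ^ 2 ∣ q ^ 3 := (pow_dvd_pow_of_dvd hd' 2).trans (pow_dvd_pow q (by norm_num))
      exact ((h3.mul_right _).mul_right _).mul_right _
    have h4 : Nat.Coprime (p ^ 2) (Nat.gcd 3 r) := by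
      apply Nat.Coprime.pow_left
      rw [Nat.Prime.coprime_iff_not_dvd hpp]
      intro h5
      have := Nat.le_of_dvd (by rcases hd with h6 | h6 <;> omega) h5
      rcases hd with h6 | h6 <;> omega
    exact h4.dvd_of_dvd_mul_left h1
  -- an involution
  obtain ⟨x, hx, hxP⟩ := h.exists_not_mem
  have hx2 := h.orderOf_eq_two hx hxP
  have hx1 : x ≠ 1 := by
    rintro rfl
    rw [orderOf_one] at hx2
    norm_num at hx2
  have hcent := not_dvd_centralizer h hx1 (by
    rw [hx2]
    intro h3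
    have := Nat.le_of_dvd (by norm_num) h3
    omega)
  have hidx : p ∣ (Subgroup.centralizer ({x} : Set G)).index := by
    have h3 := Subgroup.card_mul_index (Subgroup.centralizer ({x} : Set G))
    have h4 := dvd_card h
    rw [← h3] at h4
    exact (hpp.dvd_mul.mp h4).resolve_left hcent
  have hex : orderOf (e x) = 2 := by rw [e.orderOf_eq, hx2]
  have hidx2 : (Subgroup.centralizer ({x} : Set G)).index = q ^ 2 * (q ^ 2 + q + 1) := by
    have h3 := Cfsg.Agent.GTwoOdd.CentPSL.index h2 (q := r) hr (e x) hex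
    have h4 : (Subgroup.centralizer ({e x} : Set _)).comap e.toMonoidHom =
        Subgroup.centralizer ({x} : Set G) := by
      ext y
      rw [Subgroup.mem_comap, Subgroup.mem_centralizer_singleton_iff, Subgroup.mem_centralizer_singleton_iff]
      change e y * e x = e x * e y ↔ _
      rw [← map_mul, ← map_mul, e.injective.eq_iff]
    rw [← h4, Subgroup.index_comap_of_surjective _ e.surjective, h3, hr]
    ring
  rw [hidx2] at hidx
  have hpm : p ∣ q ^ 2 + q + 1 := by
    rcases hpp.dvd_mul.mp hidx with h3 | h3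
    · exact absurd (hpp.dvd_of_dvd_pow h3) hpq
    · exact h3
  obtain ⟨b, hb⟩ := exists_psl_three (F := F)
  have hm := eq_or_eq h (b := e.symm b) (m := q ^ 2 + q + 1) (by rw [e.symm.orderOf_eq]; exact hb) hpm
  obtain ⟨j, hj⟩ := exists_sylow_card h
  rw [← hj] at hcard
  refine arith_end hp5 hd hm ?_ hcard ?_
  · intro h3
    have h4 : q % 3 = 1 := by
      have h5 : (q ^ 2 + q + 1) % 3 = 0 := by rw [h3]; omega
      have h6 : q % 3 = 0 ∨ q % 3 = 1 ∨ q % 3 = 2 := by omega
      rcases h6 with h6 | h6 | h6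
      · rw [Nat.add_mod, Nat.add_mod (q ^ 2), Nat.pow_mod, h6] at h5; omega
      · exact h6
      · rw [Nat.add_mod, Nat.add_mod (q ^ 2), Nat.pow_mod, h6] at h5; omega
    exact Nat.gcd_eq_left (by omega)
  · have h3 : ((q ^ 2 + q + 1 : ℕ) : ℤ) ∣ ((q ^ 3 * (q ^ 2 - 1) * r : ℕ) : ℤ) - 3 := by
      refine ⟨(q : ℤ) ^ 4 - 2 * q ^ 3 + 3 * q - 3, ?_⟩
      have h4 : ((q ^ 2 - 1 : ℕ) : ℤ) = (q : ℤ) ^ 2 - 1 := by
        rw [Nat.cast_sub (Nat.one_le_pow _ _ (by omega))]
        push_cast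
        ring
      have h5 : (r : ℤ) = q - 1 := by
        have : (q : ℤ) = r + 1 := by exact_mod_cast hr
        linarith
      rw [Nat.cast_mul, Nat.cast_mul, h4, h5]
      push_cast
      ring
    exact (Int.natCast_dvd_natCast.mpr hpm).trans h3

end PSL

section PSU

open Cfsg.Agent.H186 Cfsg.Agent.H103.UniBlock Cfsg.Agent.GTwoOdd.Core.HFiveB

variable {F : Type} [Field F] [Fintype F] {q : ℕ}

/-- An element of `PSU₃(q)` whose order is at least a third of `q² - q + 1`. -/
theorem exists_psu_three (hF : Fintype.card F = q ^ 2) (hodd : Odd q) : ∃ b : Cfsg.PSU 3 F q,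
    q ^ 2 - q + 1 ∣ 3 * orderOf b := by
  classical
  have hq2 : 2 ≤ q := by
    by_contra hcon
    have h1 : 1 < Fintype.card F := Fintype.one_lt_card
    rw [hF] at h1
    have : q = 0 ∨ q = 1 := by omega
    rcases this with rfl | rfl <;> norm_num at h1
  obtain ⟨p, hch⟩ := CharP.exists F
  obtain ⟨n, hrp, hn⟩ := FiniteField.card F p
  have : Fact p.Prime := ⟨hrp⟩
  obtain ⟨f, hf⟩ : ∃ f, q = p ^ f := by
    have h6 : q ∣ p ^ (n : ℕ) := by
      rw [← hn, hF]
      exact dvd_pow_self q two_ne_zero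
    obtain ⟨k, -, hk⟩ := (Nat.dvd_prime_pow hrp).mp h6
    exact ⟨k, hk⟩
  obtain ⟨C, ⟨x, hx, hx1⟩, hordC⟩ := exists_singer_unitary (p := p) (f := f) (m := 3) hf hF ⟨1, rfl⟩
  obtain ⟨y, ⟨y, rfl⟩, M, hM1, hM2⟩ := exists_isometry hF _ x hx C.isUnit hx1
  let M' : GL (Fin 3) F := ⟨M, st q M, mul_eq_one_comm.1 hM1, hM1⟩
  have hM' : M' ∈ Cfsg.GU 3 F q := (mem_GU_iff_st hF M').2 hM1
  have hconj : M' = y * C * y⁻¹ := by
    rw [eq_mul_inv_iff_mul_eq]
    apply Units.ext
    exact hM2.symm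
  have hordM : orderOf M' = q ^ 3 + 1 := by
    rw [← hordC, hconj]
    exact (MulAut.conj y).orderOf_eq C
  have e1 : q ^ 3 + 1 = (q ^ 2 - q + 1) * (q + 1) := by
    have h1 : q ≤ q ^ 2 := Nat.le_self_pow (by norm_num) q
    zify [h1]
    ring
  have hordr : orderOf (M' ^ (q + 1)) = q ^ 2 - q + 1 := by
    rw [orderOf_pow_of_dvd (by omega) (by rw [hordM, e1]; exact Dvd.intro_left _ rfl), hordM, e1,
      Nat.mul_div_cancel _ (by omega)]
  have hdet : (((M' ^ (q + 1) : GL (Fin 3) F)) : Matrix (Fin 3) (Fin 3) F).det = 1 := by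
    have h1 : (M' : Matrix (Fin 3) (Fin 3) F).det ^ (q + 1) = 1 := by
      have h2 := congrArg Matrix.det hM1
      rw [det_mul, det_one] at h2
      have h3 : (st q M).det = M.det ^ q := by
        obtain ⟨σ, hσ⟩ := Cfsg.Agent.ClassicalGeometry.GUBasic.exists_powHom hF
        have h4 : M.map (fun x => x ^ q) = σ.mapMatrix M := by
          ext i j
          exact (hσ _).symm
        rw [st, Matrix.det_transpose, h4, ← RingHom.map_det, hσ]
      rw [pow_succ, ← h3]
      exact h2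
    rw [Units.val_pow_eq_pow_val, det_pow, h1]
  let B0 : SpecialLinearGroup (Fin 3) F := ⟨_, hdet⟩
  have hB : SpecialLinearGroup.toGL B0 = M' ^ (q + 1) := Units.ext rfl
  have hB0 : B0 ∈ Cfsg.SU 3 F q := by
    have h1 : M' ^ (q + 1) ∈ Cfsg.GU 3 F q := pow_mem hM' _
    rw [← hB] at h1
    exact h1
  let B : Cfsg.SU 3 F q := ⟨B0, hB0⟩
  have hinj : Function.Injective (SpecialLinearGroup.toGL : SpecialLinearGroup (Fin 3) F →* GL (Fin 3) F) := by
    intro x z hxz
    apply Subtype.ext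
    exact congrArg Units.val hxz
  have hordB : orderOf B = q ^ 2 - q + 1 := by
    rw [← hordr, ← hB, Subgroup.orderOf_mk]
    exact (orderOf_injective (SpecialLinearGroup.toGL (n := Fin 3) (R := F)) hinj B0).symm
  refine ⟨QuotientGroup.mk B, ?_⟩
  rw [← hordB, orderOf_dvd_iff_pow_eq_one]
  have h1 : B ^ orderOf (QuotientGroup.mk B : Cfsg.PSU 3 F q) ∈ Subgroup.center (Cfsg.SU 3 F q) := by
    rw [← QuotientGroup.eq_one_iff]
    have := pow_orderOf_eq_one (QuotientGroup.mk B : Cfsg.PSU 3 F q)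
    exact this
  rw [mul_comm, pow_mul]
  exact pow_three_of_center hF hodd h1

theorem no_psu_three (hF : Fintype.card F = q ^ 2) (hq4 : q % 4 = 1) {G : Type u} [Group G] [Finite G]
    (e : G ≃* Cfsg.PSU 3 F q) {p : ℕ} [Fact p.Prime] {P : Sylow p G} (h : Hyp P) : False := by
  classical
  have hpp : p.Prime := Fact.out
  have hp5 := h.five
  have hodd : Odd q := Nat.odd_iff.mpr (by omega)
  have hq2 : 2 ≤ q := by
    by_contra hcon
    have h1 : 1 < Fintype.card F := Fintype.one_lt_card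
    rw [hF] at h1
    have : q = 0 ∨ q = 1 := by omega
    rcases this with rfl | rfl <;> norm_num at h1
  have hle : q ≤ q ^ 2 := Nat.le_self_pow (by norm_num) q
  have e1 : q ^ 3 + 1 = (q + 1) * (q ^ 2 - q + 1) := by
    zify [hle]
    ring
  obtain ⟨w, hw⟩ : ∃ w, q ^ 2 = w + 1 := ⟨q ^ 2 - 1, by omega⟩
  -- order
  have hcard : Nat.gcd 3 (q + 1) * Nat.card G = (q ^ 3 * (q ^ 2 - 1) * (q + 1)) * (q ^ 2 - q + 1) := by
    have h1 := Cfsg.Agent.S0280.result hF 3 (by norm_num)
    rw [← Nat.card_congr e.toEquiv] at h1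
    norm_num [Finset.prod_range_succ, Nat.even_iff] at h1
    apply Nat.eq_of_mul_eq_mul_right (show 0 < q + 1 by omega)
    calc Nat.gcd 3 (q + 1) * Nat.card G * (q + 1) = Nat.gcd 3 (q + 1) * ((q + 1) * Nat.card G) := by ring
      _ = _ := by rw [h1, e1]; ring
  have hd : Nat.gcd 3 (q + 1) = 1 ∨ Nat.gcd 3 (q + 1) = 3 :=
    (Nat.dvd_prime Nat.prime_three).mp (Nat.gcd_dvd_left 3 _)
  -- an involution
  obtain ⟨x, hx, hxP⟩ := h.exists_not_mem
  have hx2 := h.orderOf_eq_two hx hxP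
  have hx1 : x ≠ 1 := by
    rintro rfl
    rw [orderOf_one] at hx2
    norm_num at hx2
  have hcent := not_dvd_centralizer h hx1 (by
    rw [hx2]
    intro h3
    have := Nat.le_of_dvd (by norm_num) h3
    omega)
  have hex : orderOf (e x) = 2 := by rw [e.orderOf_eq, hx2]
  obtain ⟨g, hg⟩ := Cfsg.Agent.GTwoOdd.CentPSU.exists_conj_vv hF hodd hex
  set C := Subgroup.centralizer ({vv (F := F) hF hodd} : Set (Cfsg.PSU 3 F q)) with hC
  have hCx : Nat.card C = Nat.card (Subgroup.centralizer ({x} : Set G)) := by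
    let φ : Cfsg.PSU 3 F q ≃* G := (MulAut.conj g).trans e.symm
    have h4 : (Subgroup.centralizer ({x} : Set G)).comap φ.toMonoidHom = C := by
      ext y
      rw [Subgroup.mem_comap, Subgroup.mem_centralizer_singleton_iff, Subgroup.mem_centralizer_singleton_iff]
      have hφv : φ (vv (F := F) hF hodd) = x := by
        change e.symm (g * vv hF hodd * g⁻¹) = x
        rw [hg, e.symm_apply_apply]
      change φ y * x = x * φ y ↔ _
      rw [← hφv, ← map_mul, ← map_mul, φ.injective.eq_iff]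
    have h5 : C.map φ.toMonoidHom = Subgroup.centralizer ({x} : Set G) := by
      rw [← h4, Subgroup.map_comap_eq_self_of_surjective φ.surjective]
    rw [← h5]
    exact Nat.card_congr (C.equivMapOfInjective φ.toMonoidHom φ.injective).toEquiv
  rw [← hCx] at hcent
  have : Finite (Cfsg.GU 2 F q) := Cfsg.Agent.LieClassical.GUOrder.finite_GU 2
  have h2' := Cfsg.Agent.S0277.result hF 2
  norm_num [Finset.prod_range_succ, Nat.even_iff] at h2'
  have h3 : Nat.card C * Nat.card (toC (F := F) hF hodd).ker = Nat.card (Cfsg.GU 2 F q) := by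
    rw [← Subgroup.card_mul_index (toC (F := F) hF hodd).ker, Subgroup.index_ker,
      MonoidHom.range_eq_top.2 (toC_surjective hF hodd), Subgroup.card_top, mul_comm]
  have hker : ¬ p ∣ Nat.card (toC (F := F) hF hodd).ker := by
    intro hpk
    obtain ⟨r, hr⟩ := exists_prime_orderOf_dvd_card' p hpk
    have h1 : (toC hF hodd (r : Cfsg.GU 2 F q)) = 1 := r.2
    have h2 : (QuotientGroup.mk (emb hF (r : Cfsg.GU 2 F q)) : Cfsg.PSU 3 F q) = 1 := congrArg Subtype.val h1
    rw [QuotientGroup.eq_one_iff] at h2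
    have h3 := pow_three_of_center hF hodd h2
    rw [← map_pow, ← map_one (emb hF)] at h3
    have h4 : (r : Cfsg.GU 2 F q) ^ 3 = 1 := emb_injective hF h3
    have h5 : orderOf (r : Cfsg.GU 2 F q) ∣ 3 := orderOf_dvd_of_pow_eq_one h4
    rw [Subgroup.orderOf_coe, hr] at h5
    have := Nat.le_of_dvd (by norm_num) h5
    omega
  have hGU : ¬ p ∣ q * ((q + 1) * (q ^ 2 - 1)) := by
    rw [← h2', ← Nat.card_eq_fintype_card, ← h3]
    intro h4
    rcases hpp.dvd_mul.mp h4 with h5 | h5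
    · exact hcent h5
    · exact hker h5
  have hpq : ¬ p ∣ q := fun h4 => hGU (h4.mul_right _)
  have hpq1 : ¬ p ∣ q + 1 := fun h4 => hGU ((h4.mul_right _).mul_left _)
  have hpq2 : ¬ p ∣ q ^ 2 - 1 := fun h4 => hGU ((h4.mul_left _).mul_left _)
  have hpm : p ∣ q ^ 2 - q + 1 := by
    have h4 : p ∣ Nat.gcd 3 (q + 1) * Nat.card G := (dvd_card h).mul_left _
    rw [hcard] at h4
    rcases hpp.dvd_mul.mp h4 with h5 | h5
    · rcases hpp.dvd_mul.mp h5 with h6 | h6
      · rcases hpp.dvd_mul.mp h6 with h7 | h7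
        · exact absurd (hpp.dvd_of_dvd_pow h7) hpq
        · exact absurd h7 hpq2
      · exact absurd h6 hpq1
    · exact h5
  obtain ⟨b, hb⟩ := exists_psu_three (F := F) hF hodd
  have hm := eq_or_eq h (b := e.symm b) (m := q ^ 2 - q + 1) (by rw [e.symm.orderOf_eq]; exact hb) hpm
  obtain ⟨j, hj⟩ := exists_sylow_card h
  rw [← hj] at hcard
  refine arith_end hp5 hd hm ?_ hcard ?_
  · intro h3
    have h4 : q % 3 = 2 := by
      have h5 : (q ^ 2 + 1) % 3 = q % 3 := by omega
      have h6 : q % 3 = 0 ∨ q % 3 = 1 ∨ q % 3 = 2 := by omega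
      rcases h6 with h6 | h6 | h6
      · rw [Nat.add_mod, Nat.pow_mod, h6] at h5; omega
      · rw [Nat.add_mod, Nat.pow_mod, h6] at h5; omega
      · exact h6
    exact Nat.gcd_eq_left (by omega)
  · have h3 : ((q ^ 2 - q + 1 : ℕ) : ℤ) ∣ ((q ^ 3 * (q ^ 2 - 1) * (q + 1) : ℕ) : ℤ) - 3 := by
      refine ⟨(q : ℤ) ^ 4 + 2 * q ^ 3 - 3 * q - 3, ?_⟩
      have h4 : ((q ^ 2 - 1 : ℕ) : ℤ) = (q : ℤ) ^ 2 - 1 := by
        rw [Nat.cast_sub (Nat.one_le_pow _ _ (by omega))]
        push_cast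
        ring
      have h5 : ((q ^ 2 - q + 1 : ℕ) : ℤ) = (q : ℤ) ^ 2 - q + 1 := by
        rw [Nat.cast_add, Nat.cast_sub hle]
        push_cast
        ring
      rw [h5, Nat.cast_mul, Nat.cast_mul, h4]
      push_cast
      ring
    exact (Int.natCast_dvd_natCast.mpr hpm).trans h3

end PSU

end Cfsg.Agent.H103.ThreeP
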